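import Mathlib
import Cfsg.Agent.S0780
import Cfsg.Agent.Lib.Helper13.Herm
import Cfsg.Agent.Lib.Helper71.SUG2.Defs

/-!
# Project SUG (S2412), block [II], package [II-SUGEN]

A subgroup of `SU_n(2)` (`n ≥ 4`) containing the transvections `T_v` of all isotropic vectors is
everything.
-/

set_option autoImplicit false
open scoped Matrix

namespace Cfsg.Agent.Lib.Helper70.SUG2

open Cfsg.Agent.Lib.Helper71.SUG2 Cfsg.Agent.Lib.Helper13

universe u

theorem sg_herm_single_left {F : Type u} [Field F] (n : ℕ) (i : Fin n) (v : Fin n → F) :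
    Cfsg.hermForm n F 2 (Pi.single i 1) v = v i ^ 2 := by
  classical
  unfold Cfsg.hermForm
  rw [Finset.sum_eq_single i]
  · simp
  · intro j _ hj
    simp [hj]
  · intro hi
    exact absurd (Finset.mem_univ i) hi

theorem sg_herm_single_right {F : Type u} [Field F] (n : ℕ) (i : Fin n) (v : Fin n → F) :
    Cfsg.hermForm n F 2 v (Pi.single i 1) = v i := by
  classical
  unfold Cfsg.hermForm
  rw [Finset.sum_eq_single i]
  · simp
  · intro j _ hj
    simp [hj]
  · intro hi
    exact absurd (Finset.mem_univ i) hi

/-- **[II-SUGEN]** -/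
theorem pkgSUGen : PkgSUGen.{u} := by
  intro F _ _ hF n hn K hK
  have hgen := Cfsg.Agent.S0780.result hF n (by omega) (by omega)
  rw [eq_top_iff, ← hgen, Subgroup.closure_le]
  rintro A ⟨v, c, hv, hA⟩
  have hA' : smat A = Cfsg.unitaryTransvection n 2 v c := hA
  by_cases hc : c = 0
  · have h1 : A = 1 := by
      apply smat_ext
      rw [smat_one, hA', hc]
      unfold Cfsg.unitaryTransvection
      simp
    rw [h1]; exact K.one_mem
  by_cases hv0 : v = 0
  · have h1 : A = 1 := by
      apply smat_ext
      rw [smat_one, hA', hv0]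
      unfold Cfsg.unitaryTransvection
      ext i j
      simp
    rw [h1]; exact K.one_mem
  have hc1 : c = 1 := by
    obtain ⟨i, hi⟩ : ∃ i, v i ≠ 0 := by
      by_contra h
      push Not at h
      exact hv0 (funext h)
    have hpres := H_smat A (E i : Fin n → F) (E i)
    rw [hA', unitaryTransvection_mulVec] at hpres
    have h3 := f4_cube hF (v i) hi
    have h2 := f4_two hF
    have hvv : Cfsg.hermForm n F 2 v v = 0 := hv
    have e : (c * v i ^ 2) ^ 2 * v i ^ 2 + (c * v i ^ 2) * v i = 0 := by
      have hp : Cfsg.hermForm n F 2 ((E i : Fin n → F) + (c * Cfsg.hermForm n F 2 (E i) v) • v)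
          ((E i : Fin n → F) + (c * Cfsg.hermForm n F 2 (E i) v) • v) =
          Cfsg.hermForm n F 2 (E i : Fin n → F) (E i) := hpres
      rw [hermForm_add_left, hermForm_add_right hF, hermForm_add_right hF, hermForm_smul_left,
        hermForm_smul_left, hermForm_smul_right, hermForm_smul_right, hvv,
        sg_herm_single_left n i v, sg_herm_single_right n i v] at hp
      linear_combination hp
    have e2 : c ^ 2 + c = 0 := by
      calc c ^ 2 + c = c ^ 2 * (v i ^ 3) ^ 2 + c * v i ^ 3 := by rw [h3]; ring
        _ = (c * v i ^ 2) ^ 2 * v i ^ 2 + (c * v i ^ 2) * v i := by ring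
        _ = 0 := e
    have e3 : c * (c + 1) = 0 := by linear_combination e2
    rcases mul_eq_zero.mp e3 with h | h
    · exact absurd h hc
    · linear_combination h - h2
  exact (hK v hv).2 A (by rw [hA', hc1])

end Cfsg.Agent.Lib.Helper70.SUG2
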